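import Mathlib
import Cfsg.Agent.Lib.Helper58.UPair.Defs
import Cfsg.Agent.Lib.Helper45.HermGU
import Cfsg.Agent.Lib.Helper13.SUGen2

/-!
# Project UPair (S5984), package [BLOCKEMB]: `SU_j(q) → SU_n(q)`, `B ↦ B ⊕ 1`
-/

set_option autoImplicit false

namespace Cfsg.Agent.Lib.Helper82.UPair

open Matrix Cfsg.Agent.Lib.Helper58.UPair Cfsg.Agent.Lib.Helper45 Cfsg.Agent.Lib.Helper13

universe u

section

variable {F : Type u} [Field F] [Fintype F] {q : ℕ}

theorem hermEmb_pow' {n : ℕ} (M : Matrix (Fin n) (Fin n) F) (k : ℕ) :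
    hermEmb (M ^ k) = hermEmb M ^ k := by
  induction k with
  | zero => simp [hermEmb_one]
  | succ k ih => rw [pow_succ, pow_succ, hermEmb_mul, ih]

/-- `w ↦ (w, 0)` as a linear map. -/
def snocL (n : ℕ) (F : Type u) [Field F] [Fintype F] :
    (Fin n → F) →ₗ[F] (Fin (n + 1) → F) where
  toFun w := Fin.snoc w 0
  map_add' a b := by rw [snoc_add_snoc, add_zero]
  map_smul' c a := by rw [RingHom.id_apply, smul_snoc, mul_zero]

theorem hermEmb_sub_one_mulVec {n : ℕ} (M : Matrix (Fin n) (Fin n) F) (y : Fin n → F) (t : F) :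
    (hermEmb M - 1) *ᵥ (Fin.snoc y t : Fin (n + 1) → F) = Fin.snoc ((M - 1) *ᵥ y) 0 := by
  rw [Matrix.sub_mulVec, Matrix.one_mulVec, hermEmb_mulVec_snoc, snoc_sub_snoc, sub_self,
    Matrix.sub_mulVec, Matrix.one_mulVec]

theorem rank_hermEmb_sub_one {n : ℕ} (M : Matrix (Fin n) (Fin n) F) :
    (hermEmb M - 1).rank = (M - 1).rank := by
  apply le_antisymm
  · have hle : LinearMap.range (hermEmb M - 1).mulVecLin ≤
        (LinearMap.range (M - 1).mulVecLin).map (snocL n F) := by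
      rintro _ ⟨u, rfl⟩
      refine ⟨(M - 1) *ᵥ (Fin.init u), ⟨Fin.init u, rfl⟩, ?_⟩
      show Fin.snoc ((M - 1) *ᵥ Fin.init u) 0 = (hermEmb M - 1) *ᵥ u
      rw [← hermEmb_sub_one_mulVec M (Fin.init u) (u (Fin.last n)), Fin.snoc_init_self]
    exact (Submodule.finrank_mono hle).trans (Submodule.finrank_map_le _ _)
  · have hsub : (M - 1) = (hermEmb M - 1).submatrix Fin.castSucc Fin.castSucc := by
      ext i j
      simp [Matrix.one_apply]
    rw [hsub]
    exact Matrix.rank_submatrix_le _ _ _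

theorem blockEmb_step (hF : Fintype.card F = q ^ 2) {j : ℕ} (B : GL (Fin j) F)
    (hB : B ∈ Gp j F q) :
    ∃ x ∈ Gp (j + 1) F q, (∀ k : ℕ, B ^ k = 1 → x ^ k = 1) ∧
      (sh x 1).rank = (sh B 1).rank := by
  have hB' := Subgroup.mem_inf.mp hB
  have hBU : IsHermIso j F q (B : Matrix (Fin j) (Fin j) F) := hB'.1
  have hBdet : (B : Matrix (Fin j) (Fin j) F).det = 1 := by
    have h1 := hB'.2
    rw [Cfsg.Geo.specialLinear, MonoidHom.mem_ker] at h1
    have h2 : Matrix.GeneralLinearGroup.det B = 1 := h1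
    have h3 := congrArg (fun t : Fˣ => (t : F)) h2
    simpa using h3
  have hE : IsHermIso (j + 1) F q (hermEmb (B : Matrix (Fin j) (Fin j) F)) :=
    isHermIso_hermEmb hBU
  have hu : IsUnit (hermEmb (B : Matrix (Fin j) (Fin j) F)) := isHermIso_isUnit hF hE
  refine ⟨hu.unit, Subgroup.mem_inf.mpr ⟨?_, ?_⟩, ?_, ?_⟩
  · show IsHermIso (j + 1) F q ((hu.unit : GL (Fin (j + 1)) F) : Matrix _ _ F)
    rw [IsUnit.unit_spec]
    exact hE
  · rw [Cfsg.Geo.specialLinear, MonoidHom.mem_ker]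
    apply Units.ext
    rw [Matrix.GeneralLinearGroup.val_det_apply, IsUnit.unit_spec, det_hermEmb, hBdet,
      Units.val_one]
  · intro k hk
    apply Units.ext
    rw [Units.val_pow_eq_pow_val, IsUnit.unit_spec, ← hermEmb_pow', ← Units.val_pow_eq_pow_val, hk]
    simp [hermEmb_one]
  · unfold sh
    rw [IsUnit.unit_spec, one_smul, one_smul]
    exact rank_hermEmb_sub_one _

end

theorem pkgBlockEmb : PkgBlockEmb.{u} := by
  intro F _ _ q j n hF hjn B hB
  induction n, hjn using Nat.le_induction with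
  | base => exact ⟨B, hB, fun k hk => hk, rfl⟩
  | succ n hjn ih =>
    obtain ⟨x, hx, hpow, hrank⟩ := ih
    obtain ⟨x', hx', hpow', hrank'⟩ := blockEmb_step hF x hx
    exact ⟨x', hx', fun k hk => hpow' k (hpow k hk), hrank'.trans hrank⟩

end Cfsg.Agent.Lib.Helper82.UPair
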